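import Cfsg.Agent.FusionSub.Solvable

/-!
Solvability and normal subsystems: `F` is solvable iff `E` and `F/T` are.
-/

set_option autoImplicit false

open Cfsg Cfsg.FusionSystem Cfsg.Agent.FusionSys Cfsg.Agent.FusionAlperin
open scoped commutatorElement

namespace Cfsg.Agent.FusionSub

variable {Ω : Type*} [Group Ω] {S T : Subgroup Ω} {F : FusionSystem S}

/-- The largest subgroup of `U` invariant under `Aut_F(T)`. -/
def invCore (F : FusionSystem S) (T U : Subgroup Ω) : Subgroup Ω :=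
  (⨅ α : F.autGroup T, (U.subgroupOf T).comap (α : MulAut T).toMonoidHom).map T.subtype

theorem mem_invCore {U : Subgroup Ω} {x : Ω} :
    x ∈ invCore F T U ↔ ∃ hx : x ∈ T, ∀ α ∈ F.autGroup T, ((α ⟨x, hx⟩ : T) : Ω) ∈ U := by
  constructor
  · rintro ⟨y, hy, rfl⟩
    exact ⟨y.2, fun α hα => (Subgroup.mem_iInf.1 hy) ⟨α, hα⟩⟩
  · rintro ⟨hx, h⟩
    exact ⟨⟨x, hx⟩, Subgroup.mem_iInf.2 fun α => h α α.2, rfl⟩

theorem sc_invCore {E : FusionSystem T} (hE : E.IsInvariantIn F) {U : Subgroup Ω}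
    (hU : E.StronglyClosed U) : F.StronglyClosed (invCore F T U) := by
  obtain ⟨hsub, hT, hinv, hfrat⟩ := hE
  refine sc_of_elements ((Subgroup.map_subtype_le _).trans hT.1) fun P φ hφ x hx => ?_
  obtain ⟨hxT, hxα⟩ := mem_invCore.1 hx
  set P₀ := P ⊓ T
  obtain ⟨β, hβ, φ₀, hφ₀, hd⟩ :=
    hfrat P₀ inf_le_right (restr inf_le_left φ) (restr_mem F inf_le_left hφ)
  have hx₀ : (x : Ω) ∈ P₀ := ⟨x.2, hxT⟩
  have hφ₀T : φ₀ ⟨x, hx₀⟩ ∈ T := map_mem_S E hφ₀ _
  have hmem : φ₀ ⟨x, hx₀⟩ ∈ invCore F T U := by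
    refine mem_invCore.2 ⟨hφ₀T, fun α hα => ?_⟩
    obtain ⟨χ, hχ, hχe⟩ := hinv P₀ inf_le_right φ₀ hφ₀ α hα
    have hαx : ((α ⟨x, hxT⟩ : T) : Ω) ∈ (P₀.subgroupOf T).map (T.subtype.comp α.toMonoidHom) :=
      ⟨⟨x, hxT⟩, hx₀, rfl⟩
    rw [← hχe ⟨x, hx₀⟩ hφ₀T hαx]
    exact sc_map_mem hU hχ (x := ⟨_, hαx⟩) (hxα α hα)
  obtain ⟨hy, hyα⟩ := mem_invCore.1 hmem
  have e : φ x = ((β ⟨φ₀ ⟨x, hx₀⟩, hy⟩ : T) : Ω) := hd ⟨x, hx₀⟩ hy
  rw [e]
  refine mem_invCore.2 ⟨SetLike.coe_mem _, fun α hα => ?_⟩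
  exact hyα (α * β) (mul_mem hα hβ)

theorem invCore_comm {U V : Subgroup Ω} (h : ⁅V, V⁆ ≤ U) :
    ⁅invCore F T V, invCore F T V⁆ ≤ invCore F T U := by
  refine Subgroup.commutator_le.2 fun a ha b hb => ?_
  obtain ⟨haT, haα⟩ := mem_invCore.1 ha
  obtain ⟨hbT, hbα⟩ := mem_invCore.1 hb
  refine mem_invCore.2 ⟨(⁅(⟨a, haT⟩ : T), ⟨b, hbT⟩⁆ : T).2, fun α hα => ?_⟩
  show ((α ⁅(⟨a, haT⟩ : T), ⟨b, hbT⟩⁆ : T) : Ω) ∈ U
  rw [map_commutatorElement]
  exact h (Subgroup.commutator_mem_commutator (haα α hα) (hbα α hα))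

variable [Finite S] {p : ℕ} [Fact p.Prime]

theorem solvable_normal_iff (hS : IsPGroup p S) (hF : F.IsSaturated p) {E : FusionSystem T}
    (hEsat : E.IsSaturated p) (hEinv : E.IsInvariantIn F) {Ω' : Type*} [Group Ω']
    {S' : Subgroup Ω'} {θ : S →* Ω'} {D : FusionSystem S'} (hD : F.IsFactorSystem T θ D) :
    F.IsSolvableSystem ↔ E.IsSolvableSystem ∧ D.IsSolvableSystem := by
  have hT := hEinv.2.1
  have : Finite T := finite_of_le ‹_› hT.1
  obtain ⟨hfin, hpD⟩ := factor_finite_pgroup hS hD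
  rw [solvable_iff_abSeries hS hF, solvable_iff_abSeries (hS.to_le hT.1) hEsat,
    solvable_iff_abSeries hpD (factor_saturated hS hF hT hD)]
  constructor
  · intro h
    obtain ⟨n, Ts, h0, hl, hm, hs, hc⟩ := abSeries_iff_chain.1 h
    constructor
    · refine abSeries_iff_chain.2 ⟨n, fun i => Ts i ⊓ T, by simp [h0],
        by simp [hl, inf_eq_right.2 hT.1], fun i j hij => inf_le_inf_right _ (hm hij), fun i => ?_,
        fun i => ?_⟩
      · exact sc_of_elements inf_le_right fun P φ hφ x hx =>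
          ⟨sc_map_mem (hs i) (hEinv.1 P hφ) hx.1, map_mem_S E hφ x⟩
      · exact le_inf ((Subgroup.commutator_mono inf_le_left inf_le_left).trans (hc i))
          ((Subgroup.commutator_mono inf_le_right inf_le_right).trans
            (Subgroup.commutator_le_self _))
    · refine abSeries_iff_chain.2 ⟨n, fun i => imageAlong θ (Ts i), ?_, ?_, ?_, fun i => ?_,
        fun i => ?_⟩
      · simp [imageAlong, h0]
      · simp only [imageAlong, hl, Subgroup.subgroupOf_self, ← MonoidHom.range_eq_map]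
        exact hD.2.2.1
      · exact fun i j hij => Subgroup.map_mono fun x hx => hm hij hx
      · exact sc_imageAlong hD (hs i)
      · exact comm_imageAlong (hs _).1 (hc i)
  · rintro ⟨hEs, hDs⟩
    obtain ⟨n, U, h0, hl, hm, hs, hc⟩ := abSeries_iff_chain.1 hEs
    have hTser : AbSeries F T := by
      have := abSeries_preimage hS hF hT hD hDs
      rwa [preimageAlong_bot hD] at this
    have h1 : invCore F T (U (Fin.last n)) = T := by
      rw [hl]
      exact le_antisymm (Subgroup.map_subtype_le _)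
        fun x hx => mem_invCore.2 ⟨hx, fun α _ => SetLike.coe_mem _⟩
    have h2 : invCore F T (U 0) = ⊥ := by
      rw [h0, eq_bot_iff]
      intro x hx
      obtain ⟨hxT, hxα⟩ := mem_invCore.1 hx
      exact hxα 1 (one_mem _)
    rw [← h2]
    suffices ∀ i, AbSeries F (invCore F T (U i)) from this 0
    intro i
    induction i using Fin.reverseInduction with
    | last => rw [h1]; exact hTser
    | cast j ih =>
      refine .step ?_ (sc_invCore hEinv (hs _)) (invCore_comm (hc j)) ih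
      intro x hx
      obtain ⟨hxT, hxα⟩ := mem_invCore.1 hx
      exact mem_invCore.2 ⟨hxT, fun α hα => hm (Fin.castSucc_le_succ j) (hxα α hα)⟩

end Cfsg.Agent.FusionSub
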